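import Cfsg.Agent.Lib.Helper11.WE7o.Model
import Cfsg.Agent.Lib.Helper11.Order
import Cfsg.Agent.Lib.Helper11.OrderW

set_option autoImplicit false
set_option maxRecDepth 100000

namespace Cfsg.Agent.Lib.Helper11.WE7o

open Cfsg.Spor Cfsg.Agent.Lib.Helper11.WE7 Cfsg.Agent.Lib.Helper11.WE7a

set_option maxHeartbeats 0

noncomputable def mnets : List (List (ℕ × ℕ)) := []
noncomputable def ntl2 : List (List (ℕ × ℕ)) := ntl ++ mnets
def macs : List (List ℕ) := [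
  ]
def levels : List (List ℕ × ℕ × ℕ × ℕ × ℕ) := [
  ([1, 2, 3, 4, 5, 6, 7, 1, 2, 3, 4, 5, 6, 4, 5, 2, 3, 1, 4, 2, 3, 1, 2, 3, 1, 1], 4, 0, 0, 56),
  ([1, 2, 3, 4, 5, 6, 4, 5, 2, 3, 1, 4, 2, 3, 1, 2, 3, 1, 1], 3, 1, 1, 27),
  ([4, 5, 2, 3, 1, 4, 2, 3, 1, 2, 3, 1, 1], 2, 2, 2, 16),
  ([4, 2, 3, 1, 2, 3, 1, 1], 2, 3, 3, 10),
  ([2, 3, 1, 1], 1, 4, 4, 6),
  ([1], 1, 6, 6, 2)]

theorem nets2OK : ntl2.all (fun net => net.all (stOK (2 ^ (2 ^ 6)))) = true := by decide +kernel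
theorem macOK : macChk (ntOf ntl2) 6 8 macs = true := by decide +kernel
theorem chainOK : chainChk (ntOf ntl2) 8 levels [] = true := by decide +kernel

theorem hrange : ∀ l < 8, netPerm (ntOf ntl2 l) ∈ psi.range := by
  have h0 : ∀ l < 8, netPerm (ntOf ntl2 l) ∈ psi.range := by
    intro l hl
    refine ⟨PresentedGroup.mk _ ((WExp.l l).eval (fun l => LTFm.getD l 1)), ?_⟩
    rw [psi_eval]
    show wordPerm (ntOf ntl) [l] = _
    rw [wordPerm_single]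
    have hlen : ntl.length = 8 := by decide +kernel
    have e : ntOf ntl l = ntOf ntl2 l := by
      unfold ntOf ntl2
      rw [List.getD_append _ _ _ _ (by omega)]
    rw [e]
  exact macChk_spec psi (ntOf ntl2) 6 (ntOf_ok ntl2 _ nets2OK) macs 8 macOK h0

theorem order (hup : Nat.card Cfsg.Agent.Lib.Helper11.WE7 ≠ 0 ∧ Nat.card Cfsg.Agent.Lib.Helper11.WE7 ≤ 2903040) :
    Nat.card Cfsg.Agent.Lib.Helper11.WE7 = 2903040 ∧ stabL psi (pushB levels []) = ⊥ :=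
  order_of_chain psi _ (ntOf ntl2) (ntOf_ok ntl2 _ nets2OK) 8 hrange levels chainOK 2903040
    (by decide +kernel) hup

theorem hbn : ∀ b ∈ pushB levels [], b < 56 := by decide


end Cfsg.Agent.Lib.Helper11.WE7o
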